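import Cfsg.Agent.J2Type.Util
import Cfsg.Agent.J2Type.Alt5

/-!
Facts on the alternating group of degree five used to recognise the Hall-Janko group.
-/

set_option autoImplicit false

namespace CfsgLib.J2Uniq.A5Facts

open CfsgLib.J2Type

set_option synthInstance.maxSize 2000 in
/-- a third generator: `(a b)` of order five and `(b c)` of order three -/
theorem exists_third : ∀ a : A5, a * a = 1 → a ≠ 1 → ∀ c : A5, c * c = 1 ∧ c ≠ 1 ∧ a * c = c * a ∧ a ≠ c →
    ∃ b : A5, b * b = 1 ∧ ((b * c) ^ 3 = 1 ∧ b * c ≠ 1) ∧ ((a * b) ^ 5 = 1 ∧ a * b ≠ 1) := by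
  decide +kernel

/-- a partner of order three -/
theorem exists_partner : ∀ a : A5, a * a = 1 → a ≠ 1 →
    ∃ y : A5, y * y = 1 ∧ y ≠ 1 ∧ (y * a) ^ 3 = 1 ∧ y * a ≠ 1 := by decide +kernel

theorem three_conj : ∀ a : A5, a ^ 3 = 1 → a ≠ 1 → ∀ b : A5, b ^ 3 = 1 → b ≠ 1 →
    ∃ k, k * a * k⁻¹ = b := by decide +kernel

/-- Three such involutions generate. -/
theorem eq_top_of_mem {a c b : A5} (ha : a * a = 1) (ha1 : a ≠ 1)
    (hb : ((b * c) ^ 3 = 1 ∧ b * c ≠ 1) ∧ ((a * b) ^ 5 = 1 ∧ a * b ≠ 1))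
    (L : Subgroup A5) (haL : a ∈ L) (hcL : c ∈ L) (hbL : b ∈ L) : L = ⊤ := by
  haveI : Fact (Nat.Prime 2) := ⟨Nat.prime_two⟩
  haveI : Fact (Nat.Prime 3) := ⟨Nat.prime_three⟩
  haveI : Fact (Nat.Prime 5) := ⟨by norm_num⟩
  have h2 := Subgroup.orderOf_dvd_natCard L haL
  have h3 := Subgroup.orderOf_dvd_natCard L (L.mul_mem hbL hcL)
  have h5 := Subgroup.orderOf_dvd_natCard L (L.mul_mem haL hbL)
  rw [J2Type.orderOf_two_iff.2 ⟨ha, ha1⟩] at h2
  rw [orderOf_eq_prime hb.1.1 hb.1.2] at h3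
  rw [orderOf_eq_prime hb.2.1 hb.2.2] at h5
  have h30 : 30 ∣ Nat.card L :=
    Nat.Coprime.mul_dvd_of_dvd_of_dvd (m := 6) (n := 5) (by norm_num)
      (Nat.Coprime.mul_dvd_of_dvd_of_dvd (m := 2) (n := 3) (by norm_num) h2 h3) h5
  have hmul := L.card_mul_index
  rw [J2Type.A5Facts.card] at hmul
  obtain ⟨k, hk⟩ := h30
  rw [hk] at hmul
  have hidx : k * L.index = 2 := by nlinarith
  have : L.index = 1 ∨ L.index = 2 := (Nat.dvd_prime Nat.prime_two).1 ⟨k, by rw [← hidx, mul_comm]⟩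
  rcases this with h | h
  · exact Subgroup.index_eq_one.1 h
  · exfalso
    haveI := alternatingGroup.isSimpleGroup_five
    rcases (Subgroup.normal_of_index_eq_two h).eq_bot_or_eq_top with e | e
    · exact ha1 (by rwa [e, Subgroup.mem_bot] at haL)
    · rw [e, Subgroup.index_top] at h
      norm_num at h

/-- A subgroup of order twelve does not contain two involutions with product of order three. -/
theorem card_ne_twelve {x y : A5} (hx : x * x = 1) (hy : y * y = 1)
    (h3 : (x * y) ^ 3 = 1) (h1 : x * y ≠ 1) (L : Subgroup A5) (hxL : x ∈ L) (hyL : y ∈ L) :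
    Nat.card L ≠ 12 := by
  classical
  intro h12
  haveI : Fact (Nat.Prime 3) := ⟨Nat.prime_three⟩
  set r := x * y with hr
  have hro : orderOf r = 3 := orderOf_eq_prime h3 h1
  have hinv : x * r * x⁻¹ = r⁻¹ := by
    rw [hr, mul_inv_rev, J2Type.inv_of_sq hx, J2Type.inv_of_sq hy, ← mul_assoc x x, hx, one_mul]
  have hne : r⁻¹ ≠ r := fun e => h1 (by
    have h2 : r * r = 1 := by nth_rw 1 [← e]; exact inv_mul_cancel r
    calc r = r ^ 3 * (r * r)⁻¹ := by group
      _ = 1 := by rw [h3, h2, inv_one, one_mul])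
  have hcent : ∀ w, w * r = r * w → w ∈ Subgroup.zpowers r := by
    intro w hw
    have hle : Subgroup.zpowers r ≤ Subgroup.centralizer ({r} : Set A5) :=
      Subgroup.zpowers_le.2 (J2Type.mem_cent_iff.2 rfl)
    haveI := Fintype.ofFinite ↥(Subgroup.centralizer ({r} : Set A5))
    rw [Subgroup.eq_of_le_of_card_ge hle (le_of_eq ?_)]
    · exact J2Type.mem_cent_iff.2 hw
    · rw [Nat.card_zpowers, hro, Nat.card_eq_fintype_card, Fintype.card_subtype]
      refine Eq.trans ?_ (J2Type.A5Facts.cent_three r h3 h1)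
      exact congrArg Finset.card (Finset.ext fun v => by simp [J2Type.mem_cent_iff])
  have hrL : r ∈ L := L.mul_mem hxL hyL
  have hC : L ⊓ Subgroup.centralizer ({r} : Set A5) = Subgroup.zpowers r :=
    le_antisymm (fun w hw => hcent w (J2Type.mem_cent_iff.1 hw.2))
      (le_inf (Subgroup.zpowers_le.2 hrL) (Subgroup.zpowers_le.2 (J2Type.mem_cent_iff.2 rfl)))
  set O := {b : A5 | ∃ w ∈ L, w * r * w⁻¹ = b} with hO
  have horb := J2Type.conj_orbit_card_mul L r
  rw [hC, Nat.card_zpowers, hro, h12] at horb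
  have h4 : O.ncard = 4 := by rw [hO]; omega
  have hmod := J2Type.ncard_modEq_fixed (k := 1) (p := 3) (g := r) (by rw [hro]; rfl) O (by
    rintro _ ⟨w, hw, rfl⟩
    exact ⟨r * w, L.mul_mem hrL hw, by group⟩)
  have hfix : {v | v ∈ O ∧ r * v = v * r} = {r, r⁻¹} := by
    ext v
    constructor
    · rintro ⟨⟨w, hw, rfl⟩, hc⟩
      obtain ⟨i, hi, e⟩ : ∃ i < 3, w * r * w⁻¹ = r ^ i := by
        have := hcent _ hc.symm
        rw [mem_zpowers_iff_mem_range_orderOf, hro] at this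
        obtain ⟨i, hi, e⟩ := Finset.mem_image.1 this
        exact ⟨i, Finset.mem_range.1 hi, e.symm⟩
      rw [Set.mem_insert_iff, Set.mem_singleton_iff, e]
      interval_cases i
      · exfalso
        rw [pow_zero] at e
        exact J2Type.conj_ne_one h1 e
      · exact Or.inl (pow_one r)
      · exact Or.inr (eq_inv_of_mul_eq_one_left (by rw [← pow_succ, h3]))
    · rintro (rfl | rfl)
      · exact ⟨⟨1, L.one_mem, by group⟩, rfl⟩
      · exact ⟨⟨x, hxL, hinv⟩, by group⟩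
  rw [hfix, Set.ncard_pair hne.symm, h4] at hmod
  exact absurd hmod (by decide)

end CfsgLib.J2Uniq.A5Facts
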