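import Cfsg.Agent.SporJ2.Iso

/-!
The four generator part of the presentation of the Hall-Janko group: word identities true in the
model hold in every group with the same relations; recognition of the whole group by relations.
-/

set_option autoImplicit false
set_option maxRecDepth 100000

namespace CfsgLib.J2Uniq

open CfsgLib.CosetEnum CfsgLib.SporJ2 CfsgLib.SporJ2.Hundred

/-- the relators in the first four letters -/
def rels4 : List (List ℕ) :=
  [[0, 0], [1, 1], [2, 2], [3, 3], [0, 1, 0, 1, 0, 1, 0, 1, 0, 1], [0, 2, 0, 2], [0, 3, 0, 3],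
    [1, 2, 1, 2, 1, 2], [1, 3, 1, 3], [2, 3, 2, 3, 2, 3, 2, 3, 2, 3, 2, 3, 2, 3, 2, 3],
    [0, 3, 2, 3, 2, 3, 2, 3, 2]]

theorem rels4_sub : ∀ w ∈ rels4, w ∈ rels := by decide

theorem rels4_lt : rels4.all (fun w => w.all fun x => x.blt 4) = true := by decide

theorem wordsC2 : wordsFrom (fun y => y) rels4 (Suz.C2.cert.words.take Suz.C2.cert.nr) = true := by
  decide +kernel

variable {G : Type*} [Group G] (v : ℕ → G)

theorem card_seg_four_le (hv : ∀ w ∈ rels4, gword v w = 1) :
    Nat.card (seg v 4) ≤ 2160 ∧ Nat.card (seg v 4) ≠ 0 := by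
  have hsq : ∀ x < 4, v x * v x = 1 := by
    intro x hx
    have h : rels4.contains [x, x] = true := by interval_cases x <;> decide
    simpa [gword] using hv _ (List.contains_iff_mem.1 h)
  have h1 : Nat.card (seg v 1) ≤ 2 ∧ Nat.card (seg v 1) ≠ 0 := by
    have : seg v 1 = Subgroup.zpowers (v 0) := by
      rw [Subgroup.zpowers_eq_closure, seg]
      exact congrArg Subgroup.closure (Set.ext fun z =>
        ⟨fun ⟨x, hx, e⟩ => by rw [Nat.lt_one_iff.1 hx] at e; exact e.symm,
          fun e => ⟨0, Nat.one_pos, e.symm⟩⟩)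
    rw [this, Nat.card_zpowers]
    have hd : orderOf (v 0) ∣ 2 :=
      orderOf_dvd_of_pow_eq_one (by rw [pow_two, hsq 0 (by norm_num)])
    exact ⟨Nat.le_of_dvd (by norm_num) hd, fun h0 => by rw [h0] at hd; norm_num at hd⟩
  set C := Suz.C2.cert with hC
  have hinv : ∀ x, letterVal 4 v (C.iv x) = (letterVal 4 v x)⁻¹ := fun x =>
    letterVal_inv 4 v (fun y => y)
      (fun y hy => ⟨hy, (inv_eq_of_mul_eq_one_right (hsq y hy)).symm⟩) (fun _ hy => hy) x
  have hc := certWords_C2
  simp only [certWordsOK, Bool.and_eq_true, List.all_eq_true, Nat.blt, Nat.ble_eq] at hc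
  obtain ⟨⟨-, h2⟩, h3⟩ := hc
  have hr4 : ∀ w ∈ rels4, gword (letterVal 4 v) w = 1 := fun w hw => by
    have := rels4_lt
    simp only [List.all_eq_true, Nat.blt, Nat.ble_eq] at this
    rw [gword_letterVal v fun x hx => this w hw x hx]
    exact hv w hw
  have hrel : ∀ (k : ℕ) (w : List ℕ), C.words[k]? = some w → k < C.nr →
      gword (letterVal 4 v) w = 1 := fun k w hk hlt =>
    gword_of_wordsFrom (letterVal 4 v) (fun y => y) hinv wordsC2 hr4 w
      (List.mem_of_getElem? (i := k) (by rw [List.getElem?_take, if_pos hlt, hk]))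
  have hsub : ∀ (k : ℕ) (w : List ℕ), C.words[k]? = some w →
      gword (letterVal 4 v) w ∈ seg v 1 := by
    intro k w hk
    by_cases hlt : k < C.nr
    · rw [hrel k w hk hlt]; exact one_mem _
    · have hw : w ∈ C.words.drop C.nr :=
        List.mem_of_getElem? (i := k - C.nr)
          (by rw [List.getElem?_drop, show C.nr + (k - C.nr) = k by omega, hk])
      refine gword_mem _ _ fun x hx => ?_
      have hxm : x < 1 := h3 w hw x hx
      rw [letterVal_lt v (lt_of_lt_of_le hxm (by norm_num))]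
      exact Subgroup.subset_closure ⟨x, hxm, rfl⟩
  have hr := relIndex_le Suz.C2.facts Suz.C2.n_pos Suz.C2.node_zero Suz.C2.rows (seg v 1)
    (letterVal 4 v) hinv hrel hsub
  have hseg : Subgroup.closure {a | ∃ x < C.L, letterVal 4 v x = a} = seg v 4 := by
    refine congrArg Subgroup.closure (Set.ext fun z => ?_)
    constructor <;> rintro ⟨x, hx, rfl⟩ <;>
      exact ⟨x, hx, by rw [letterVal_lt v (show x < 4 from hx)]⟩
  rw [hseg, show C.n = 1080 from rfl] at hr
  have := Subgroup.relIndex_mul_relIndex ⊥ (seg v 1) (seg v 4) bot_le (seg_mono v (by norm_num))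
  rw [Subgroup.relIndex_bot_left, Subgroup.relIndex_bot_left] at this
  rw [← this]
  exact ⟨(Nat.mul_le_mul h1.1 hr.1).trans (le_of_eq (by norm_num)),
    Nat.mul_ne_zero h1.2 hr.2⟩

theorem card_seg_four_sigma : 2160 ≤ Nat.card (seg sigma 4) := by
  have h0 := card_seg_four_le sigma fun w hw => sigma_rels w (rels4_sub w hw)
  have h := seg_step (m := 5) (m' := 4) (n := 280) (b := Nat.card (seg sigma 4)) sigma sigma_rels rfl
    (fun _ => rfl) Suz.PGL29.facts Suz.PGL29.n_pos Suz.PGL29.node_zero Suz.PGL29.rows rfl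
    certWords_PGL29 (by norm_num) (by norm_num) ⟨le_rfl, h0.2⟩ rfl
  have h1 : Nat.card (seg sigma 5) = 604800 := card_grp
  omega

theorem seg_map {H K : Type*} [Group H] [Group K] (f : H →* K) (u : ℕ → H) (m : ℕ) :
    (seg u m).map f = seg (fun x => f (u x)) m := map_seg f u m

/-- A word in four letters that is trivial in the model is trivial under the relations. -/
theorem gword_eq_one (hv : ∀ w ∈ rels4, gword v w = 1) {w : List ℕ} (hw : ∀ x ∈ w, x < 4)
    (h : gword sigma w = 1) : gword v w = 1 := by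
  let p : ℕ → G × Equiv.Perm (Fin Hundred.D.n) := fun x => (v x, sigma x)
  have hp : ∀ r ∈ rels4, gword p r = 1 := fun r hr => by
    refine Prod.ext ?_ ?_
    · show MonoidHom.fst _ _ (gword p r) = _
      rw [gword_map]; exact hv r hr
    · show MonoidHom.snd _ _ (gword p r) = _
      rw [gword_map]; exact sigma_rels r (rels4_sub r hr)
  obtain ⟨hle, hne⟩ := card_seg_four_le p hp
  haveI : Finite (seg p 4) := Nat.finite_of_card_ne_zero hne
  have hsurj := MonoidHom.subgroupMap_surjective (MonoidHom.snd G _) (seg p 4)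
  have hcard : Nat.card (seg p 4) = Nat.card ((seg p 4).map (MonoidHom.snd G _)) := by
    refine le_antisymm (hle.trans ?_) (Nat.card_le_card_of_surjective _ hsurj)
    rw [seg_map]
    exact card_seg_four_sigma
  have hb : Function.Bijective ((MonoidHom.snd G _).subgroupMap (seg p 4)) :=
    (Nat.bijective_iff_surjective_and_card _).2 ⟨hsurj, hcard⟩
  have hmem : gword p w ∈ seg p 4 :=
    gword_mem _ _ fun x hx => Subgroup.subset_closure ⟨x, hw x hx, rfl⟩
  have h2 : (gword p w).2 = 1 := by
    show MonoidHom.snd _ _ (gword p w) = 1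
    rw [gword_map]; exact h
  have h3 : (⟨gword p w, hmem⟩ : seg p 4) = 1 := hb.1 (Subtype.ext (by simpa using h2))
  have h4 : MonoidHom.fst _ _ (gword p w) = (1 : G) := by
    rw [show gword p w = 1 from congrArg Subtype.val h3, map_one]
  rwa [gword_map] at h4

/-- A group of order 604800 with five such generators is the Hall-Janko group. -/
theorem isoJ2_of_rels [Finite G] (hG : Nat.card G = 604800) (hv : ∀ w ∈ rels, gword v w = 1)
    (h0 : v 0 ≠ 1) : Cfsg.Spor.IsoJ2 G := by
  let p : ℕ → G × Hundred.grp := fun x => (v x, gens x)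
  have hp : ∀ r ∈ rels, gword p r = 1 := fun r hr => by
    refine Prod.ext ?_ ?_
    · show MonoidHom.fst _ _ (gword p r) = _
      rw [gword_map]; exact hv r hr
    · show MonoidHom.snd _ _ (gword p r) = _
      rw [gword_map]; exact gens_rels r hr
  obtain ⟨hle, hne⟩ := card_seg_le p hp
  haveI : Finite (seg p 5) := Nat.finite_of_card_ne_zero hne
  let q : seg p 5 →* Hundred.grp := (MonoidHom.snd G _).comp (seg p 5).subtype
  have hq : Function.Surjective q := by
    intro y
    have hy : y ∈ (seg p 5).map (MonoidHom.snd G _) := by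
      rw [seg_map]
      exact closure_gens.ge (Subgroup.mem_top y)
    obtain ⟨x, hx, rfl⟩ := hy
    exact ⟨⟨x, hx⟩, rfl⟩
  have hqb : Function.Bijective q := (Nat.bijective_iff_surjective_and_card q).2
    ⟨hq, le_antisymm (hle.trans_eq card_grp.symm) (Nat.card_le_card_of_surjective q hq)⟩
  let θ : Hundred.grp →* G :=
    ((MonoidHom.fst G _).comp (seg p 5).subtype).comp (MulEquiv.ofBijective q hqb).symm.toMonoidHom
  have hθ : θ (gens 0) = v 0 := by
    have e : (MulEquiv.ofBijective q hqb).symm (gens 0) =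
        ⟨p 0, Subgroup.subset_closure ⟨0, by norm_num, rfl⟩⟩ :=
      (MulEquiv.symm_apply_eq _).2 rfl
    show (((MulEquiv.ofBijective q hqb).symm (gens 0) : seg p 5) : G × Hundred.grp).1 = v 0
    rw [e]
  have := Hundred.simple
  have hinj : Function.Injective θ := by
    rw [← MonoidHom.ker_eq_bot_iff]
    refine θ.normal_ker.eq_bot_or_eq_top.resolve_right fun htop => h0 ?_
    rw [← hθ]
    exact MonoidHom.mem_ker.1 (htop ▸ Subgroup.mem_top _)
  obtain ⟨e⟩ := exists_equiv_J2
  exact ⟨(MulEquiv.ofBijective θ ((Nat.bijective_iff_injective_and_card θ).2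
    ⟨hinj, by rw [card_grp, hG]⟩)).symm.trans e.symm⟩

/-! ### Certified words -/

/-- the word of the element of order three centralizing the alternating subgroup -/
def fWord : List ℕ := [1, 2, 3, 2, 3, 1, 2, 3, 2, 3, 1, 2, 3, 2, 3, 1, 2, 3, 2, 3, 1, 2, 3, 2, 3]

/-- identities of the model -/
def idWords : List (List ℕ) :=
  [fWord ++ fWord ++ fWord, fWord ++ [0] ++ fWord.reverse ++ [0],
    fWord ++ [1] ++ fWord.reverse ++ [1], fWord ++ [2] ++ fWord.reverse ++ [2],
    [1, 2, 0, 1, 2, 3, 1, 2, 3, 2, 1, 0, 2, 1, 0, 1, 2, 3, 2, 1, 3, 2, 1, 0] ++ (fWord ++ fWord),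
    [3, 2, 1, 0, 1, 2, 0, 1, 2, 3, 0, 1, 2, 3, 2, 1, 3, 2, 1, 0, 2, 1],
    [3, 2, 1, 0, 3, 2, 1, 0, 1, 2, 0, 1, 2, 3, 0, 1, 2, 3, 0, 1, 2, 3, 2, 1, 3, 2, 1, 0, 2, 1, 2, 1]
      ++ fWord]

theorem idWords_ok : idWords.all (fun w => w.all (fun x => x.blt 4) &&
    allBelow (fun i => runR (fun x i => Hundred.D.T (5 * i + x)) w i == i) 100) = true := by
  decide +kernel

theorem sigma_small : ∀ x < 4, ∀ i : Fin Hundred.D.n,
    ((sigma x i : Fin Hundred.D.n) : ℕ) = Hundred.D.T (5 * i + x) := by
  intro x hx i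
  rw [sigma, PermData.OK.sigma, dif_pos (show x < Hundred.D.L from Nat.lt_succ_of_lt hx)]
  rfl

theorem gword_idWord (hv : ∀ w ∈ rels4, gword v w = 1) {w : List ℕ} (hw : w ∈ idWords) :
    gword v w = 1 := by
  have := List.all_eq_true.1 idWords_ok w hw
  simp only [Bool.and_eq_true, List.all_eq_true, Nat.blt, Nat.ble_eq, Model.allBelow_iff,
    beq_iff_eq] at this
  refine gword_eq_one v hv this.1 (Equiv.ext fun i => Fin.ext ?_)
  rw [gword_runR sigma (fun x i => Hundred.D.T (5 * i + x)) 4
    sigma_small w this.1,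
    this.2 i i.2]
  rfl

end CfsgLib.J2Uniq
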