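import Cfsg.Agent.J2Type.Classes
import Cfsg.Agent.S0215

/-!
In a simple group with an involution centralizer of the given shape the involution is not weakly
closed in the extraspecial group.
-/

set_option autoImplicit false

namespace CfsgLib.J2Uniq

open CfsgLib.J2Type

variable {G : Type*} [Group G] [Finite G]

/-- `Setup` from a normal extraspecial self-centralizing subgroup with quotient `A5`. -/
theorem exists_setup {t : G} (ht : orderOf t = 2)
    (Q : Subgroup (Subgroup.centralizer ({t} : Set G))) [Q.Normal] (hQ : Cfsg.IsExtraspecial 2 Q)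
    (hcard : Nat.card Q = 32)
    (h2c : Subgroup.centralizer (Q : Set (Subgroup.centralizer ({t} : Set G))) ≤ Q)
    (e : (Subgroup.centralizer ({t} : Set G)) ⧸ Q ≃* A5) :
    ∃ img : G → A5, Setup t (Q.map (Subgroup.centralizer ({t} : Set G)).subtype) img := by
  classical
  set QG := Q.map (Subgroup.centralizer ({t} : Set G)).subtype with hQG
  have htC : t ∈ (Subgroup.centralizer ({t} : Set G)) := mem_cent_iff.2 rfl
  have htc : ∀ c : ↥(Subgroup.centralizer ({t} : Set G)), c * ⟨t, htC⟩ = ⟨t, htC⟩ * c := fun c => Subtype.ext (mem_cent_iff.1 c.2)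
  have ht' : (⟨t, htC⟩ : ↥(Subgroup.centralizer ({t} : Set G))) ∈ Q := by
    refine h2c ?_
    exact Subgroup.mem_centralizer_iff.2 fun q _ => htc q
  have hQC : QG ≤ (Subgroup.centralizer ({t} : Set G)) := Subgroup.map_subtype_le _
  have htQ : t ∈ QG := ⟨_, ht', rfl⟩
  have hEQ : Cfsg.IsExtraspecial 2 ↥QG := LargeExtraspecial.isExtraspecial_of_mulEquiv
    (Q.equivMapOfInjective _ (Subgroup.centralizer ({t} : Set G)).subtype_injective) hQ
  have ht1 : t ≠ 1 := by intro e'; rw [e', orderOf_one] at ht; norm_num at ht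
  have htz : t ∈ LargeExtraspecial.zOf QG := LargeExtraspecial.mem_zOf.2
    ⟨htQ, fun q hq => mem_cent_iff.1 (hQC hq)⟩
  obtain ⟨w, -, -, hw⟩ := LargeExtraspecial.exists_gen hEQ
  obtain rfl : t = w := ((hw t).1 htz).resolve_left ht1
  let img : G → A5 := fun a =>
    if ha : a ∈ (Subgroup.centralizer ({t} : Set G)) then e (QuotientGroup.mk ⟨a, ha⟩) else 1
  have hval : ∀ a (ha : a ∈ (Subgroup.centralizer ({t} : Set G))), img a = e (QuotientGroup.mk ⟨a, ha⟩) := fun a ha => dif_pos ha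
  refine ⟨img, ⟨hEQ, hw, ht, le_antisymm ?_ (LargeExtraspecial.zOf_le_centralizer QG), ?_⟩, ?_, ?_, ?_, ?_⟩
  · intro c hc
    have hcC : c ∈ (Subgroup.centralizer ({t} : Set G)) := mem_cent_iff.2 (Subgroup.mem_centralizer_iff.1 hc t htQ).symm
    have : (⟨c, hcC⟩ : ↥(Subgroup.centralizer ({t} : Set G))) ∈ Q := h2c (Subgroup.mem_centralizer_iff.2 fun q hq => Subtype.ext
      (Subgroup.mem_centralizer_iff.1 hc q ⟨q, hq, rfl⟩))
    exact LargeExtraspecial.mem_zOf.2 ⟨⟨_, this, rfl⟩, fun q hq => Subgroup.mem_centralizer_iff.1 hc q hq⟩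
  · intro c hc q
    have key : ∀ a : ↥(Subgroup.centralizer ({t} : Set G)), ∀ v ∈ QG, (a : G) * v * (a : G)⁻¹ ∈ QG := by
      rintro a _ ⟨f, hf, rfl⟩
      exact ⟨a * f * a⁻¹, Subgroup.Normal.conj_mem inferInstance f hf a, rfl⟩
    refine ⟨key ⟨c, mem_cent_iff.2 hc⟩ q, fun h => ?_⟩
    have := key ⟨c, mem_cent_iff.2 hc⟩⁻¹ _ h
    simpa [mul_assoc] using this
  · rw [Subgroup.card_map_of_injective (Subgroup.centralizer ({t} : Set G)).subtype_injective, hcard]
  · intro a b ha hb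
    rw [hval a (mem_cent_iff.2 ha), hval b (mem_cent_iff.2 hb),
      hval (a * b) (mul_mem (mem_cent_iff.2 ha) (mem_cent_iff.2 hb)), ← map_mul]
    rfl
  · intro y
    obtain ⟨c, hc⟩ := QuotientGroup.mk_surjective (e.symm y)
    exact ⟨c, mem_cent_iff.1 c.2, by rw [hval c c.2, Subtype.coe_eta, hc, e.apply_symm_apply]⟩
  · intro a ha
    rw [hval a (mem_cent_iff.2 ha), map_eq_one_iff e e.injective, QuotientGroup.eq_one_iff]
    exact ⟨fun hq => ⟨_, hq, rfl⟩, fun ⟨x, hx, e'⟩ => by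
      have : x = ⟨a, mem_cent_iff.2 ha⟩ := Subtype.ext e'
      exact this ▸ hx⟩

section

variable {z : G} {Q : Subgroup G} {img : G → A5} (h : Setup z Q img)
include h

/-- When an outside involution has small centralizer in `Q` all outside involutions are conjugate. -/
theorem conj_outside {s b : G} (hsz : s * z = z * s) (hss : s * s = 1) (hsQ : s ∉ Q)
    (hcard : Nat.card ↥(Q ⊓ Subgroup.centralizer ({s} : Set G)) ≤ 4)
    (hbz : b * z = z * b) (hbb : b * b = 1) (hbQ : b ∉ Q) : IsConj s b := by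
  have himg : img s * img s = 1 ∧ img s ≠ 1 :=
    ⟨by rw [← h.mul _ _ hsz hsz, hss, h.img_one], fun e => hsQ ((h.ker s hsz).1 e)⟩
  have hmem : ∀ q ∈ Q, (s * q) * (s * q) = 1 → s * q ∈ (fun q => s * q) '' fixMod z Q s := by
    intro q hq hsq
    refine ⟨q, ⟨hq, ?_⟩, rfl⟩
    have h2 : s * q * s⁻¹ = q⁻¹ := by
      refine eq_inv_of_mul_eq_one_left ?_
      calc s * q * s⁻¹ * q = (s * q) * (s * q) := by rw [inv_of_sq hss, mul_assoc (s * q)]
        _ = 1 := hsq
    rw [h2]
    rcases h.sq_cases hq with e | e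
    · exact Or.inl (inv_of_sq e)
    · right
      refine inv_eq_of_mul_eq_one_right ?_
      rw [← mul_assoc, h.comm_Q hq, mul_assoc, e, h.z_sq]
  have hsub : {b : G | ∃ p ∈ Q, p * s * p⁻¹ = b} ⊆ (fun q => s * q) '' fixMod z Q s := by
    rintro b ⟨p, hp, rfl⟩
    have hqQ : s⁻¹ * (p * s * p⁻¹) ∈ Q := by
      rw [show s⁻¹ * (p * s * p⁻¹) = (s⁻¹ * p * s⁻¹⁻¹) * p⁻¹ by group]
      exact Q.mul_mem (h.conj_mem (h.comm_inv hsz) hp) (Q.inv_mem hp)
    have := hmem _ hqQ (by
      rw [show s * (s⁻¹ * (p * s * p⁻¹)) = p * s * p⁻¹ by group]; exact conj_sq hss)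
    rwa [show s * (s⁻¹ * (p * s * p⁻¹)) = p * s * p⁻¹ by group] at this
  have horb := conj_orbit_card_mul Q s
  rw [h.card_Q] at horb
  have heq := Set.eq_of_subset_of_ncard_le hsub (by
    rw [Set.ncard_image_of_injective _ (mul_right_injective s)]
    have := h.card_fixMod_le hsz himg.1 himg.2
    have hpos : 0 < {b : G | ∃ p ∈ Q, p * s * p⁻¹ = b}.ncard :=
      (Set.ncard_pos).2 ⟨s, 1, Q.one_mem, by simp⟩
    nlinarith)
  obtain ⟨g0, hg0⟩ := A5Facts.invol_conj (img s) himg.1 himg.2 (img b)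
    (by rw [← h.mul _ _ hbz hbz, hbb, h.img_one]) (fun e => hbQ ((h.ker b hbz).1 e))
  obtain ⟨c, hc, rfl⟩ := h.surj g0
  have hcb : c⁻¹ * b * c * z = z * (c⁻¹ * b * c) := h.comm_mul (h.comm_mul (h.comm_inv hc) hbz) hc
  have hqQ : s⁻¹ * (c⁻¹ * b * c) ∈ Q := by
    refine (h.ker _ (h.comm_mul (h.comm_inv hsz) hcb)).1 ?_
    rw [h.mul _ _ (h.comm_inv hsz) hcb, h.img_inv hsz,
      h.mul _ _ (h.comm_mul (h.comm_inv hc) hbz) hc, h.mul _ _ (h.comm_inv hc) hbz, h.img_inv hc,
      ← hg0]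
    group
  have h1 : s * (s⁻¹ * (c⁻¹ * b * c)) = c⁻¹ * b * c := by group
  have h2 := hmem _ hqQ (by
    rw [h1, show c⁻¹ * b * c * (c⁻¹ * b * c) = c⁻¹ * (b * b) * c by group, hbb]; group)
  rw [h1, ← heq] at h2
  obtain ⟨p, -, hp⟩ := h2
  refine (isConj_iff.2 ⟨c * p, ?_⟩)
  rw [show c * p * s * (c * p)⁻¹ = c * (p * s * p⁻¹) * c⁻¹ by group, hp]
  group

/-- The centralizer in `Q` of a conjugate of `z` outside `Q` is small if `z` is weakly closed. -/
theorem card_cent_le {s : G} {U : Subgroup G} {img' : G → A5} (h' : Setup s U img')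
    (hsz : s * z = z * s) (hzU : z ∉ U) (hsQ : s ∉ Q) :
    Nat.card ↥(Q ⊓ Subgroup.centralizer ({s} : Set G)) ≤ 4 := by
  have hsq : ∀ a ∈ Q ⊓ Subgroup.centralizer ({s} : Set G), a * a = 1 := by
    intro a ha
    have has : a * s = s * a := mem_cent_iff.1 ha.2
    rcases h.sq_cases ha.1 with e | e
    · exact e
    exfalso
    have h4 : img' a ^ 4 = 1 := by rw [← h'.img_pow has, h.pow_four ha.1, h'.img_one]
    have h2 := A5Facts.order_four _ h4
    rw [← h'.mul _ _ has has, e] at h2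
    exact hzU ((h'.ker z hsz.symm).1 h2)
  by_contra hlt
  push Not at hlt
  obtain ⟨a, ha, ha1, haz⟩ : ∃ a ∈ Q ⊓ Subgroup.centralizer ({s} : Set G), a ≠ 1 ∧ a ≠ z := by
    by_contra hcon
    push Not at hcon
    have := (Set.ncard_le_ncard (show ((Q ⊓ Subgroup.centralizer ({s} : Set G) : Subgroup G) : Set G) ⊆ {1, z}
      from fun x hx => by
        by_cases h1 : x = 1
        · exact Or.inl h1
        · exact Or.inr (hcon x hx h1)) (Set.toFinite _)).trans (Set.ncard_insert_le _ _)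
    rw [Set.ncard_singleton, ← Nat.card_coe_set_eq, SetLike.coe_sort_coe] at this
    omega
  have hsub : ((Q ⊓ Subgroup.centralizer ({s} : Set G) : Subgroup G) : Set G) ⊆ {1, z, a, z * a} := by
    intro b hb
    simp only [Set.mem_insert_iff, Set.mem_singleton_iff]
    by_cases hb1 : b = 1
    · exact Or.inl hb1
    by_cases hbz : b = z
    · exact Or.inr (Or.inl hbz)
    have hab : a * b = b * a := by
      have := hsq _ (mul_mem ha hb)
      calc a * b = (a * b)⁻¹ := eq_inv_of_mul_eq_one_left this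
        _ = b * a := by rw [mul_inv_rev, inv_of_sq (hsq a ha), inv_of_sq (hsq b hb)]
    rcases h.eq_of_commute ⟨ha.1, hsq a ha, ha1, haz⟩ ⟨hb.1, hsq b hb, hb1, hbz⟩ hab with e | e
    · exact Or.inr (Or.inr (Or.inl e))
    · exact Or.inr (Or.inr (Or.inr e))
  have h4 := Set.ncard_le_ncard hsub (Set.toFinite _)
  have h5 : ({1, z, a, z * a} : Set G).ncard ≤ 4 := by
    refine (Set.ncard_insert_le _ _).trans ?_
    refine Nat.succ_le_succ ((Set.ncard_insert_le _ _).trans ?_)
    exact Nat.succ_le_succ (Set.ncard_pair (fun e => h.z_ne (mul_eq_right.1 e.symm))).le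
  rw [← Nat.card_coe_set_eq, SetLike.coe_sort_coe] at h4
  omega

/-- In a simple group `z` is not weakly closed in `Q`. -/
theorem exists_conj_mem [IsSimpleGroup G] : ∃ g : G, g * z * g⁻¹ ∈ Q ∧ g * z * g⁻¹ ≠ z := by
  haveI : Fact (Nat.Prime 2) := ⟨Nat.prime_two⟩
  by_contra hwc
  push Not at hwc
  obtain ⟨c, hc, hcz⟩ : ∃ c, c * z * c⁻¹ * z = z * (c * z * c⁻¹) ∧ c * z * c⁻¹ ≠ z := by
    by_contra hiso
    push Not at hiso
    obtain ⟨P, hP⟩ := (IsPGroup.of_card (p := 2) (n := 1) (show Nat.card (Subgroup.zpowers z) = 2 ^ 1 by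
      rw [Nat.card_zpowers, h.setting.order]; rfl)).exists_le_sylow
    have hzP : z ∈ (P : Subgroup G) := hP (Subgroup.mem_zpowers z)
    haveI : Group.IsNilpotent ↥(P : Subgroup G) := P.isPGroup'.isNilpotent
    set R := (Subgroup.centralizer ({z} : Set G)).subgroupOf (P : Subgroup G) with hR
    have hRtop : R = ⊤ := by
      refine normalizerCondition_iff_only_full_group_self_normalizing.1
        Group.normalizerCondition_of_isNilpotent R (le_antisymm ?_ Subgroup.le_normalizer)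
      intro x hx
      have h1 : x * ⟨z, hzP⟩ * x⁻¹ ∈ R := (Subgroup.mem_normalizer_iff.1 hx _).1
        (show (⟨z, hzP⟩ : ↥(P : Subgroup G)) ∈ R from mem_cent_iff.2 rfl)
      exact mem_cent_iff.2 (conj_eq_self_iff.1 (hiso (x : G) (mem_cent_iff.1 h1)))
    obtain ⟨N, hN, hNodd, hcomm⟩ := Cfsg.Agent.S0215.result P z h.setting.order hzP fun g hg =>
      hiso g (mem_cent_iff.1 ((hRtop ▸ Subgroup.mem_top _ :
        (⟨g * z * g⁻¹, hg⟩ : ↥(P : Subgroup G)) ∈ R)))
    have hCd : 1920 ∣ Nat.card G := h.card_cent ▸ Subgroup.card_subgroup_dvd_card _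
    rcases hN.eq_bot_or_eq_top with hbot | htop
    · have hcen : z ∈ Subgroup.center G := Subgroup.mem_center_iff.2 fun g => by
        have := hcomm g
        rw [hbot, Subgroup.mem_bot] at this
        exact (mul_inv_eq_iff_eq_mul.1 (mul_inv_eq_one.1 this)).symm
      rcases (inferInstance : (Subgroup.center G).Normal).eq_bot_or_eq_top with e | e
      · exact h.z_ne (by rwa [e, Subgroup.mem_bot] at hcen)
      · let : CommGroup G :=
          { (inferInstance : Group G) with
            mul_comm := fun a b => (Subgroup.mem_center_iff.1 (e ▸ Subgroup.mem_top b) a) }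
        exact absurd ((Nat.dvd_prime IsSimpleGroup.prime_card).1 hCd) (by
          rintro (h1 | h1)
          · norm_num at h1
          · have := IsSimpleGroup.prime_card (α := G)
            rw [← h1] at this
            norm_num at this)
    · rw [htop, Subgroup.card_top] at hNodd
      exact Nat.not_even_iff_odd.2 hNodd ((dvd_trans (by norm_num : 2 ∣ 1920) hCd).elim
        fun k hk => ⟨k, by omega⟩)
  set s := c * z * c⁻¹ with hs
  have hsQ : s ∉ Q := fun hq => hcz (hwc c hq)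
  have h' := h.conj c
  rw [← hs] at h'
  have hzU : z ∉ Q.map (MulAut.conj c).toMonoidHom := by
    rw [LargeExtraspecial.mem_conj_iff]
    intro hq
    have := hwc c⁻¹ (by rwa [inv_inv])
    rw [inv_inv] at this
    refine hcz ?_
    calc s = c * (c⁻¹ * z * c) * c⁻¹ := by rw [this]
      _ = z := by group
  have hle := card_cent_le h h' hc hzU hsQ
  have hle' := card_cent_le h' h hc.symm hsQ hzU
  have horb := conj_orbit_card_mul Q s
  rw [h.card_Q] at horb
  have himg : img s * img s = 1 ∧ img s ≠ 1 :=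
    ⟨by rw [← h.mul _ _ hc hc, conj_sq h.z_sq, h.img_one], fun e => hsQ ((h.ker s hc).1 e)⟩
  have h16 : {b : G | ∃ p ∈ Q, p * s * p⁻¹ = b}.ncard ≤ 8 := by
    refine (le_trans (Set.ncard_le_ncard (t := (fun q => s * q) '' fixMod z Q s) ?_ (Set.toFinite _))
      (Set.ncard_image_le (Set.toFinite _))).trans (h.card_fixMod_le hc himg.1 himg.2)
    rintro b ⟨p, hp, rfl⟩
    refine ⟨s⁻¹ * (p * s * p⁻¹), ⟨?_, ?_⟩, show s * _ = _ by group⟩
    · rw [show s⁻¹ * (p * s * p⁻¹) = (s⁻¹ * p * s⁻¹⁻¹) * p⁻¹ by group]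
      exact Q.mul_mem (h.conj_mem (h.comm_inv hc) hp) (Q.inv_mem hp)
    · set q := s⁻¹ * (p * s * p⁻¹) with hq
      have hqQ : q ∈ Q := by
        rw [hq, show s⁻¹ * (p * s * p⁻¹) = (s⁻¹ * p * s⁻¹⁻¹) * p⁻¹ by group]
        exact Q.mul_mem (h.conj_mem (h.comm_inv hc) hp) (Q.inv_mem hp)
      have h2 : s * q * s⁻¹ = q⁻¹ := by
        refine eq_inv_of_mul_eq_one_left ?_
        have hss : s * s = 1 := conj_sq h.z_sq
        calc s * q * s⁻¹ * q = (s * q) * (s * q) := by rw [inv_of_sq hss, mul_assoc (s * q)]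
          _ = 1 := by rw [show s * q = p * s * p⁻¹ by rw [hq]; group]; exact conj_sq hss
      rw [h2]
      rcases h.sq_cases hqQ with e | e
      · exact Or.inl (inv_of_sq e)
      · right
        refine inv_eq_of_mul_eq_one_right ?_
        rw [← mul_assoc, h.comm_Q hqQ, mul_assoc, e, h.z_sq]
  obtain ⟨w, hw, hw1, hwz⟩ : ∃ w ∈ Q ⊓ Subgroup.centralizer ({s} : Set G), w ≠ 1 ∧ w ≠ z := by
    by_contra hcon
    push Not at hcon
    have h2 := (Set.ncard_le_ncard (show ((Q ⊓ Subgroup.centralizer ({s} : Set G) : Subgroup G) : Set G) ⊆ {1, z}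
      from fun x hx => by
        by_cases h1 : x = 1
        · exact Or.inl h1
        · exact Or.inr (hcon x hx h1)) (Set.toFinite _)).trans (Set.ncard_insert_le _ _)
    rw [Set.ncard_singleton, ← Nat.card_coe_set_eq, SetLike.coe_sort_coe] at h2
    nlinarith
  have hws : w * s = s * w := mem_cent_iff.1 hw.2
  have hzw : z * w * s = s * (z * w) :=
    (Commute.mul_left (show Commute z s from hc.symm) (show Commute w s from hws)).eq
  have hww : w * w = 1 := by
    rcases h.sq_cases hw.1 with e | e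
    · exact e
    · exfalso
      have h4 : (fun a => img (c⁻¹ * a * c)) w ^ 4 = 1 := by
        rw [← h'.img_pow hws, h.pow_four hw.1, h'.img_one]
      have h2 := A5Facts.order_four _ h4
      rw [← h'.mul _ _ hws hws, e] at h2
      exact hzU ((h'.ker z hc.symm).1 h2)
  have hzws : z * w * (z * w) = 1 := by
    calc z * w * (z * w) = z * (w * z) * w := by group
      _ = (z * z) * (w * w) := by rw [h.comm_Q hw.1]; group
      _ = 1 := by rw [h.z_sq, hww, one_mul]
  have key : ∀ b, b * s = s * b → b * b = 1 → b ∈ Q → b ≠ z →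
      b ∈ Q.map (MulAut.conj c).toMonoidHom := fun b hbs hbb hbQ hbz => by
    by_contra hbU
    obtain ⟨p, hp⟩ := isConj_iff.1 (conj_outside h' hc.symm h.z_sq hzU hle' hbs hbb hbU)
    exact hbz (hp.symm.trans (hwc p (hp.symm ▸ hbQ)))
  have h1 := key w hws hww hw.1 hwz
  have h2 := key (z * w) hzw hzws (Q.mul_mem h.z_mem hw.1) (fun e => hw1 (mul_eq_left.1 e))
  have h3 := mul_mem h2 (inv_mem h1)
  rw [mul_inv_cancel_right] at h3
  exact hzU h3

end

end CfsgLib.J2Uniq
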